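import Mathlib
import Cfsg.Agent.Lib.Helper94.OMG.Defs
import Cfsg.Agent.Lib.Helper46.OTSM.MinusNdF
import Cfsg.Agent.Lib.Helper80.OParM.UEW
import Cfsg.Agent.Lib.Helper88.OHyp.CntWitt
import Cfsg.Agent.Lib.Helper14.Forms

/-!
# Project OMG (S2415): package [MIXW] (helper47)

Witt: a nondegenerate plus-type subspace `C` of dimension `2 k - 2` of the minus space contains
the image under an isometry of the standard vectors `e_i, f_i`, `i + 1 < k`.
-/

set_option autoImplicit false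
open scoped Matrix MatrixGroups

namespace Cfsg.Agent.Lib.Helper47.OMG

open Cfsg.Agent.Lib.Helper94.OMG Cfsg.Agent.Lib.Helper23.OHyp Cfsg.Agent.Lib.Helper64.OParM
open Cfsg.Agent.Lib.Helper99 Module QuadraticMap

universe u

/-- [MIXW] -/
theorem pkgMixW : PkgMixW.{u} := by
  intro F _ _ k a b hab hk C hNd hPlus hfin
  classical
  have hQnd : Cfsg.Geo.IsNondegenerateQuadraticForm (Cfsg.quadFormMinus k F a b) :=
    Cfsg.Agent.Lib.Helper46.OTSM.pkgMinusNdF F k a b hab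
  obtain ⟨Q', hQQ, hQ'⟩ := Cfsg.Agent.Lib.Helper88.OHyp.exists_qf hQnd
  have hQv : ∀ v, Q' v = Cfsg.quadFormMinus k F a b v := fun v => congrFun hQQ v
  have hpol : ∀ x y, polar Q' x y = polar (Cfsg.quadFormMinus k F a b) x y := by
    intro x y
    rw [hQQ]
  obtain ⟨U, hUC, hUs, hUd⟩ := hPlus
  -- hyperbolic pairs in `C`
  have hCq : QNondegOn Q' C := by
    intro w hw hwv
    by_contra hne
    obtain ⟨-, ⟨y, hy, hy'⟩⟩ := hNd w hw hne
    exact hy' (by rw [← hpol]; exact hwv y hy)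
  have hUd' : k - 1 ≤ finrank F U := by omega
  obtain ⟨e₂, f₂, hH₂, hm₂⟩ := hyp_of_singular Q' (k - 1) C U hCq hUC
    (fun w hw => by rw [hQv]; exact hUs w hw) hUd'
  -- the standard hyperbolic pairs
  have hle : k - 1 ≤ k := Nat.sub_le k 1
  let e₁ : Fin (k - 1) → (MI k → F) := fun i => eM (Fin.castLE hle i)
  let f₁ : Fin (k - 1) → (MI k → F) := fun i => fM (Fin.castLE hle i)
  have hinj : ∀ i j : Fin (k - 1), Fin.castLE hle i = Fin.castLE hle j ↔ i = j := by
    intro i j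
    exact (Fin.castLE_injective hle).eq_iff
  have hH₁ : HypFam Q' e₁ f₁ := by
    refine ⟨fun i => ⟨?_, ?_⟩, fun i j => ?_, fun i j => ⟨?_, ?_⟩⟩
    · rw [hQv]
      simp [e₁, Cfsg.quadFormMinus, Pi.single_apply]
    · rw [hQv]
      simp [f₁, Cfsg.quadFormMinus, Pi.single_apply]
    · rw [hpol]
      show polar (Cfsg.quadFormMinus k F a b) (Pi.single (Sum.inl (Sum.inl (Fin.castLE hle i))) 1)
        (Pi.single (Sum.inl (Sum.inr (Fin.castLE hle j))) 1) = _
      rw [Cfsg.Agent.Lib.Helper14.minus_polar_inl, Pi.single_apply]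
      simp only [Sum.inl.injEq, Sum.inr.injEq, hinj]
    · rw [hpol]
      show polar (Cfsg.quadFormMinus k F a b) (Pi.single (Sum.inl (Sum.inl (Fin.castLE hle i))) 1)
        (Pi.single (Sum.inl (Sum.inl (Fin.castLE hle j))) 1) = _
      rw [Cfsg.Agent.Lib.Helper14.minus_polar_inl, Pi.single_apply]
      simp
    · rw [hpol]
      show polar (Cfsg.quadFormMinus k F a b) (Pi.single (Sum.inl (Sum.inr (Fin.castLE hle i))) 1)
        (Pi.single (Sum.inl (Sum.inr (Fin.castLE hle j))) 1) = _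
      rw [Cfsg.Agent.Lib.Helper14.minus_polar_inr, Pi.single_apply]
      simp
  let W : Submodule F (MI k → F) := Submodule.span F (Set.range (Sum.elim e₁ f₁))
  have hli0 := hyp_li Q' e₁ f₁ hH₁ (Fin.elim0 : Fin 0 → (MI k → F))
    (linearIndependent_empty_type) (fun j => j.elim0)
  have hli1 : LinearIndependent F (Sum.elim e₁ f₁) := by
    have := hli0.comp Sum.inl Sum.inl_injective
    rwa [Sum.elim_comp_inl] at this
  have hWfin : finrank F W = 2 * (k - 1) := by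
    show finrank F (Submodule.span F (Set.range (Sum.elim e₁ f₁))) = _
    rw [finrank_span_eq_card hli1]
    simp
    omega
  have hCfin : finrank F C = 2 * (k - 1) := by omega
  have hm₁ : ∀ i, e₁ i ∈ W ∧ f₁ i ∈ W := fun i =>
    ⟨Submodule.subset_span ⟨Sum.inl i, rfl⟩, Submodule.subset_span ⟨Sum.inr i, rfl⟩⟩
  obtain ⟨φ, hφ⟩ := Cfsg.Agent.Lib.Helper88.OHyp.exists_isometry_of_hyp Q' W C hWfin hCfin
    e₁ f₁ e₂ f₂ hH₁ hH₂ hm₁ hm₂
  have hiso : Cfsg.Geo.AreIsometricFor (Cfsg.quadFormMinus k F a b) W C :=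
    ⟨φ, fun w => by rw [← hQv, ← hQv]; exact hφ w⟩
  obtain ⟨g, hg, hmap⟩ := Cfsg.Agent.Lib.Helper80.OParM.pkgUEW F (MI k)
    (Cfsg.quadFormMinus k F a b) hQnd W C hiso
  refine ⟨⟨g, hg⟩, fun i hi => ?_⟩
  have hi' : i.val < k - 1 := by omega
  have hei : eM i = e₁ ⟨i.val, hi'⟩ := rfl
  have hfi : fM i = f₁ ⟨i.val, hi'⟩ := rfl
  constructor
  · rw [← hmap]
    exact ⟨eM i, by rw [hei]; exact (hm₁ _).1, rfl⟩
  · rw [← hmap]
    exact ⟨fM i, by rw [hfi]; exact (hm₁ _).2, rfl⟩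

end Cfsg.Agent.Lib.Helper47.OMG
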